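import Cfsg.Agent.Lib.Helper14.MinSp.Defs
import Cfsg.Agent.Lib.Helper5.SpParabolic

set_option autoImplicit false

/-! # Pieces [S1c] and [TIK] of the S2141 farm: index of the stabiliser of a totally isotropic
subspace -/

namespace Cfsg.Agent.Lib.Helper11.MinSp

open Matrix Module Cfsg.Agent.Lib.Helper13 Cfsg.Agent.Lib.Helper5 Cfsg.Agent.Lib.Helper14.MinSp
open Cfsg.Agent.Lib.Helper94

theorem NN_mul (q m : ℕ) : NN q m * (q - 1) = q ^ (2 * m) - 1 := by
  unfold NN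
  apply Nat.div_mul_cancel
  have := Nat.sub_dvd_pow_sub_pow q 1 (2 * m)
  rwa [one_pow] at this

/-- arithmetic for [S1c] -/
theorem ti_arith1 (q m k : ℕ) (hq : 2 ≤ q) (hk : k + 1 ≤ m) :
    NN q m * ∏ i : Fin (k + 1), (q ^ (k + 1) - q ^ (i : ℕ)) ≤
      ∏ i : Fin (k + 1), (q ^ (2 * m - (i : ℕ)) - q ^ (i : ℕ)) := by
  rw [Fin.prod_univ_castSucc, Fin.prod_univ_succ (fun i : Fin (k + 1) => q ^ (2 * m - (i : ℕ)) - q ^ (i : ℕ))]
  simp only [Fin.val_castSucc, Fin.val_last, Fin.val_zero, Fin.val_succ, Nat.sub_zero, pow_zero]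
  have e1 : q ^ (k + 1) - q ^ k = (q - 1) * q ^ k := by
    rw [Nat.sub_mul, one_mul, pow_succ]; ring_nf
  have e2 : q ^ k * ∏ i : Fin k, (q ^ (k + 1) - q ^ (i : ℕ)) =
      ∏ i : Fin k, (q * (q ^ (k + 1) - q ^ (i : ℕ))) := by
    rw [Finset.prod_mul_distrib]; simp
  calc NN q m * ((∏ i : Fin k, (q ^ (k + 1) - q ^ (i : ℕ))) * (q ^ (k + 1) - q ^ k))
      = (NN q m * (q - 1)) * (q ^ k * ∏ i : Fin k, (q ^ (k + 1) - q ^ (i : ℕ))) := by
        rw [e1]; ring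
    _ = (q ^ (2 * m) - 1) * ∏ i : Fin k, (q * (q ^ (k + 1) - q ^ (i : ℕ))) := by
        rw [NN_mul, e2]
    _ ≤ (q ^ (2 * m) - 1) * ∏ i : Fin k, (q ^ (2 * m - ((i : ℕ) + 1)) - q ^ ((i : ℕ) + 1)) := by
        apply Nat.mul_le_mul_left
        apply Finset.prod_le_prod'
        intro i _
        have hi := i.2
        rw [Nat.mul_sub, ← pow_succ', ← pow_succ']
        apply Nat.sub_le_sub_right
        exact Nat.pow_le_pow_right (by omega) (by omega)

/-- arithmetic for [TIK] -/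
theorem ti_arith2 (q m k : ℕ) (hq : 2 ≤ q) (hm : 2 ≤ m) (hk : k + 1 ≤ m) :
    q ^ (k + 1 + 1) * ∏ i : Fin (k + 1), (q ^ (k + 1) - q ^ (i : ℕ)) ≤
      ∏ i : Fin (k + 1), (q ^ (2 * m - (i : ℕ)) - q ^ (i : ℕ)) := by
  rw [Fin.prod_univ_succ, Fin.prod_univ_succ (fun i : Fin (k + 1) => q ^ (2 * m - (i : ℕ)) - q ^ (i : ℕ))]
  simp only [Fin.val_zero, Fin.val_succ, Nat.sub_zero, pow_zero]
  have e2 : q ^ k * ∏ i : Fin k, (q ^ (k + 1) - q ^ ((i : ℕ) + 1)) =
      ∏ i : Fin k, (q * (q ^ (k + 1) - q ^ ((i : ℕ) + 1))) := by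
    rw [Finset.prod_mul_distrib]; simp
  calc q ^ (k + 1 + 1) * ((q ^ (k + 1) - 1) * ∏ i : Fin k, (q ^ (k + 1) - q ^ ((i : ℕ) + 1)))
      = (q ^ 2 * (q ^ (k + 1) - 1)) * (q ^ k * ∏ i : Fin k, (q ^ (k + 1) - q ^ ((i : ℕ) + 1))) := by
        ring
    _ = (q ^ 2 * (q ^ (k + 1) - 1)) * ∏ i : Fin k, (q * (q ^ (k + 1) - q ^ ((i : ℕ) + 1))) := by
        rw [e2]
    _ ≤ (q ^ (2 * m) - 1) * ∏ i : Fin k, (q ^ (2 * m - ((i : ℕ) + 1)) - q ^ ((i : ℕ) + 1)) := by
        apply Nat.mul_le_mul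
        · rw [Nat.mul_sub, ← pow_add, mul_one]
          have h1 : q ^ (2 + (k + 1)) ≤ q ^ (2 * m) := Nat.pow_le_pow_right (by omega) (by omega)
          have h2 : 1 ≤ q ^ 2 := Nat.one_le_pow _ _ (by omega)
          omega
        · apply Finset.prod_le_prod'
          intro i _
          have hi := i.2
          rw [Nat.mul_sub, ← pow_succ', ← pow_succ']
          have h1 : q ^ (k + 1 + 1) ≤ q ^ (2 * m - ((i : ℕ) + 1)) :=
            Nat.pow_le_pow_right (by omega) (by omega)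
          have h2 : q ^ ((i : ℕ) + 1) ≤ q ^ ((i : ℕ) + 1 + 1) :=
            Nat.pow_le_pow_right (by omega) (by omega)
          omega

variable {F : Type*} [Field F] {m : ℕ}

theorem finrank_ti_le (W : Submodule F (Fin m ⊕ Fin m → F))
    (hW : ∀ u ∈ W, ∀ v ∈ W, Cfsg.sympForm m F u v = 0) : finrank F W ≤ m := by
  have h1 := LinearMap.BilinForm.finrank_orthogonal (sympB_nondegenerate (F := F) m) W
  have h2 : W ≤ LinearMap.BilinForm.orthogonal (sympB m F) W := by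
    intro w hw
    rw [LinearMap.BilinForm.mem_orthogonal_iff]
    intro d hd
    show sympB m F d w = 0
    rw [sympB_apply]
    exact hW d hd w hw
  have h3 := Submodule.finrank_mono h2
  rw [finrank_symp] at h1
  have h4 : finrank F W ≤ 2 * m := by
    have := Submodule.finrank_le W
    rwa [finrank_symp] at this
  omega

theorem index_stab_mul [Fintype F] (k : ℕ) (W : Submodule F (Fin m ⊕ Fin m → F))
    (hWk : finrank F W = k) (hW : ∀ u ∈ W, ∀ v ∈ W, Cfsg.sympForm m F u v = 0) :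
    (Cfsg.stabilizing (Cfsg.spToMat m F) (W : Set (Fin m ⊕ Fin m → F))).index *
      ∏ i : Fin k, (Fintype.card F ^ k - Fintype.card F ^ (i : ℕ)) =
      ∏ i : Fin k, (Fintype.card F ^ (2 * m - (i : ℕ)) - Fintype.card F ^ (i : ℕ)) := by
  have : Finite (Matrix.symplecticGroup (Fin m) F) := Subtype.finite
  have h := card_sp_stabilizing_mul m k W hWk hW
  rw [← Subgroup.card_mul_index
    (Cfsg.stabilizing (Cfsg.spToMat m F) (W : Set (Fin m ⊕ Fin m → F)))] at h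
  have hpos : 0 < Nat.card (Cfsg.stabilizing (Cfsg.spToMat m F) (W : Set (Fin m ⊕ Fin m → F))) :=
    Nat.card_pos
  apply Nat.eq_of_mul_eq_mul_left hpos
  rw [h]; ring

theorem prod_pos_aux (q k : ℕ) (hq : 2 ≤ q) : 0 < ∏ i : Fin k, (q ^ k - q ^ (i : ℕ)) := by
  apply Finset.prod_pos
  intro i _
  have : q ^ (i : ℕ) < q ^ k := Nat.pow_lt_pow_right (by omega) i.2
  omega

theorem index_le_of_le [Fintype F] {H K : Subgroup (Matrix.symplecticGroup (Fin m) F)}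
    (h : H ≤ K) : K.index ≤ H.index := by
  have : Finite (Matrix.symplecticGroup (Fin m) F) := Subtype.finite
  exact Nat.le_of_dvd (Nat.pos_of_ne_zero (Subgroup.index_ne_zero_of_finite))
    (Subgroup.index_dvd_of_le h)

/-- [S1c] -/
theorem index_stab_ti [Fintype F] (hm : 1 ≤ m) (R : Submodule F (Fin m ⊕ Fin m → F)) (hR0 : R ≠ ⊥)
    (hR : ∀ u ∈ R, ∀ v ∈ R, Cfsg.sympForm m F u v = 0)
    (H : Subgroup (Matrix.symplecticGroup (Fin m) F))
    (hH : H ≤ Cfsg.stabilizing (Cfsg.spToMat m F) (R : Set (Fin m ⊕ Fin m → F))) :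
    NN (Fintype.card F) m ≤ H.index := by
  have hq : 2 ≤ Fintype.card F := Fintype.one_lt_card
  have hk1 : finrank F R ≠ 0 := by
    intro h
    exact hR0 (Submodule.finrank_eq_zero.1 h)
  obtain ⟨k, hk⟩ : ∃ k, finrank F R = k + 1 := ⟨finrank F R - 1, by omega⟩
  have hkm := finrank_ti_le R hR
  rw [hk] at hkm
  have h1 := index_stab_mul (k + 1) R hk hR
  have h2 := ti_arith1 (Fintype.card F) m k hq hkm
  rw [← h1] at h2
  exact (Nat.le_of_mul_le_mul_right h2 (prod_pos_aux _ _ hq)).trans (index_le_of_le hH)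

/-- [TIK] -/
theorem index_stab_ti_pow [Fintype F] (hm : 2 ≤ m) (Y : Submodule F (Fin m ⊕ Fin m → F))
    (hY0 : Y ≠ ⊥) (hY : ∀ u ∈ Y, ∀ v ∈ Y, Cfsg.sympForm m F u v = 0)
    (R : Subgroup (Matrix.symplecticGroup (Fin m) F)) (hR : ∀ l ∈ R, ∀ x ∈ Y, l.1 *ᵥ x ∈ Y) :
    Fintype.card F ^ (Module.finrank F Y + 1) ≤ R.index := by
  have hq : 2 ≤ Fintype.card F := Fintype.one_lt_card
  have hk1 : finrank F Y ≠ 0 := by
    intro h
    exact hY0 (Submodule.finrank_eq_zero.1 h)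
  obtain ⟨k, hk⟩ : ∃ k, finrank F Y = k + 1 := ⟨finrank F Y - 1, by omega⟩
  have hkm := finrank_ti_le Y hY
  rw [hk] at hkm
  have h1 := index_stab_mul (k + 1) Y hk hY
  have h2 := ti_arith2 (Fintype.card F) m k hq hm hkm
  rw [← h1] at h2
  rw [hk]
  refine (Nat.le_of_mul_le_mul_right h2 (prod_pos_aux _ _ hq)).trans (index_le_of_le ?_)
  intro l hl v
  constructor
  · intro hv
    exact hR l hl v hv
  · intro hv
    have h3 := hR l⁻¹ (R.inv_mem hl) _ hv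
    have h4 : (l⁻¹).1 *ᵥ (Cfsg.spToMat m F l *ᵥ v) = v := by
      rw [Matrix.mulVec_mulVec]
      have : (l⁻¹).1 * Cfsg.spToMat m F l = ((l⁻¹ * l : Matrix.symplecticGroup (Fin m) F)).1 := rfl
      rw [this, inv_mul_cancel]
      exact Matrix.one_mulVec v
    rw [h4] at h3
    exact h3

end Cfsg.Agent.Lib.Helper11.MinSp
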