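import Cfsg.Agent.Lib.Helper91.MinSp.IDX
import Cfsg.Agent.Lib.Helper91.MinSp.INV
import Cfsg.Agent.Lib.Helper91.MinSp.TORUS
import Cfsg.Agent.Lib.Helper63.MinSp.LAM
import Cfsg.Agent.Lib.Helper63.MinSp.DUAL
import Cfsg.Agent.Lib.Helper1.MinSp.ORB
import Cfsg.Agent.Lib.Helper1.MinSp.BAD
import Cfsg.Agent.Lib.Helper11.MinSp.S1c
import Cfsg.Agent.S0271

set_option autoImplicit false

/-! # Piece [E] of the S2141 farm: the local theorem for even `q` -/

namespace Cfsg.Agent.Lib.Helper11.MinSp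

open Matrix Cfsg.Agent.Lib.Helper13 Cfsg.Agent.Lib.Helper5 Cfsg.Agent.Lib.Helper14.MinSp
open Cfsg.Agent.Lib.Helper91.MinSp Cfsg.Agent.Lib.Helper63.MinSp Cfsg.Agent.Lib.Helper1.MinSp

/-! ### arithmetic -/

theorem A1 (r I a Q : ℕ) (hr : 3 ≤ r) (h : I * a = Q * (r+1) * r) (ha : 2*a ≤ r+1) :
    (r+1)*(r+1)*Q ≤ r*I+1 := by
  have h1 : 2 * Q * r * (r+1) ≤ I * (r+1) := by
    calc 2 * Q * r * (r+1) = 2 * (I * a) := by rw [h]; ring
      _ = I * (2 * a) := by ring
      _ ≤ I * (r+1) := Nat.mul_le_mul_left _ ha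
  have h2 : 2*Q*r ≤ I := Nat.le_of_mul_le_mul_right h1 (by omega)
  have h3 : (r+1)*(r+1) ≤ 2*r*r := by nlinarith
  calc (r+1)*(r+1)*Q ≤ 2*r*r*Q := Nat.mul_le_mul_right _ h3
    _ = r * (2*Q*r) := by ring
    _ ≤ r * I := Nat.mul_le_mul_left _ h2
    _ ≤ r*I+1 := Nat.le_succ _

theorem A2 (r I a l c i1 Q : ℕ) (hr : 3 ≤ r) (h : I * a * l = (r+1) * r * c * i1)
    (hal : a * l ≤ r+1) (hc : 2*(r+1) ≤ c) (hi : Q ≤ i1 * r + 1) (hQ : (r+1)*(r+1) ≤ Q) :
    (r+1)*(r+1)*Q ≤ r*I+1 := by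
  have h1 : r * c * i1 * (r+1) ≤ I * (r+1) := by
    calc r * c * i1 * (r+1) = I * (a * l) := by rw [← mul_assoc, h]; ring
      _ ≤ I * (r+1) := Nat.mul_le_mul_left _ hal
  have h2 : r * c * i1 ≤ I := Nat.le_of_mul_le_mul_right h1 (by omega)
  have h3 : r * (2*(r+1)) * i1 ≤ I := le_trans (by gcongr) h2
  nlinarith [Nat.mul_le_mul_left (2*(r+1)*r) hi, Nat.mul_le_mul_left r h3,
    mul_pos (show 0 < r by omega) (show 0 < r by omega)]

theorem A3 (s I Q : ℕ) (hs : 2 ≤ s) (h : (s+2)*(s+2)*Q ≤ I * s + (s+2)*(s+2))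
    (hQ : (s+2)*(s+2) ≤ Q) : (s+2)*(s+2)*Q ≤ (s+1)*I+1 := by
  by_contra hcon
  push Not at hcon
  have h1 := Nat.mul_le_mul_left (s+1) h
  have h2 := Nat.mul_le_mul_left s (Nat.succ_le_of_lt hcon)
  have h3 := Nat.mul_le_mul_left ((s+2)*(s+2)) hQ
  have h4 : (s+2)*(s+2)*Q + 2 * s ≤ (s+1) * ((s+2)*(s+2)) := by nlinarith
  nlinarith

theorem A3a (s I a l c' i1 Q : ℕ) (hs : 2 ≤ s) (h : I * a * l = (s+2) * (s+1) * (c'+1) * i1)
    (hal : (l+1) * a ≤ s+2) (ha : 2 ≤ a) (hc : c'+1 ≤ s+2) (hi : Q ≤ i1 * c' + 1)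
    (hQ : (s+2)*(s+2) ≤ Q) : (s+2)*(s+2)*Q ≤ (s+1)*I+1 := by
  apply A3 s I Q hs _ hQ
  have h1 : a * l ≤ s := by nlinarith
  have h2 : (s+2) * (s+1) * (c'+1) * i1 ≤ I * s := by
    calc (s+2) * (s+1) * (c'+1) * i1 = I * (a * l) := by rw [← mul_assoc, h]
      _ ≤ I * s := Nat.mul_le_mul_left _ h1
  have h3 : (s+2) * c' ≤ (s+1) * (c'+1) := by nlinarith
  have h4 : (s+2) * ((s+2) * c') * i1 ≤ (s+2) * ((s+1) * (c'+1)) * i1 := by gcongr
  have h5 := Nat.mul_le_mul_left ((s+2)*(s+2)) hi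
  nlinarith

theorem A3b (s I l c' i1 Q : ℕ) (hs : 2 ≤ s) (h : I * l = (s+2) * (s+1) * (c'+1) * i1)
    (hal : l + 1 ≤ s+2) (hc : 2 * (c'+1) ≤ s+2) (hi : Q ≤ i1 * c' + 1)
    (hQ : (s+2)*(s+2) ≤ Q) : (s+2)*(s+2)*Q ≤ (s+1)*I+1 := by
  apply A3 s I Q hs _ hQ
  have h1 : (s+2) * (c'+1) * i1 * (s+1) ≤ I * (s+1) := by
    calc (s+2) * (c'+1) * i1 * (s+1) = I * l := by rw [h]; ring
      _ ≤ I * (s+1) := Nat.mul_le_mul_left _ (by omega)
  have h2 : (s+2) * (c'+1) * i1 ≤ I := Nat.le_of_mul_le_mul_right h1 (by omega)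
  have h3 : (s+2) * c' ≤ (c'+1) * s := by nlinarith
  have h4 : (s+2) * ((s+2) * c') * i1 ≤ (s+2) * ((c'+1) * s) * i1 := by gcongr
  have h5 := Nat.mul_le_mul_left ((s+2)*(s+2)) hi
  have h6 := Nat.mul_le_mul_right s h2
  nlinarith

theorem A4 (r I l i1 Q : ℕ) (hr : 3 ≤ r) (h : I * l = (r+1) * r * (r+1) * i1)
    (hl : 2 * l ≤ r) (hi : Q ≤ i1 * r + 1) (hQ : (r+1)*(r+1) ≤ Q) :
    (r+1)*(r+1)*Q ≤ r*I+1 := by
  have h1 : 2 * ((r+1) * (r+1) * i1) * r ≤ I * r := by
    calc 2 * ((r+1) * (r+1) * i1) * r = I * (2 * l) := by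
          have : I * (2 * l) = 2 * (I * l) := by ring
          rw [this, h]; ring
      _ ≤ I * r := Nat.mul_le_mul_left _ hl
  have h2 : 2 * ((r+1) * (r+1) * i1) ≤ I := Nat.le_of_mul_le_mul_right h1 (by omega)
  have h3 := Nat.mul_le_mul_left r h2
  have h5 := Nat.mul_le_mul_left (2*((r+1)*(r+1))) hi
  nlinarith

theorem A5 (r I i1 Q : ℕ) (hr : 3 ≤ r) (h : I * r = (r+1) * r * (r+1) * i1)
    (hi : Q + r ≤ i1 * r + 1) : (r+1)*(r+1)*Q ≤ r*I+1 := by
  have h5 := Nat.mul_le_mul_left ((r+1)*(r+1)) hi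
  have h1 : I * r = ((r+1) * (r+1) * i1) * r := by rw [h]; ring
  have h2 : I = (r+1) * (r+1) * i1 := Nat.eq_of_mul_eq_mul_right (by omega) h1
  subst h2
  nlinarith

theorem NN_le_of (q m I : ℕ) (h : q * q * q ^ (2 * m) ≤ (q - 1) * I + 1) : NN q (m + 1) ≤ I := by
  unfold NN
  apply Nat.div_le_of_le_mul
  have : q ^ (2 * (m + 1)) = q * q * q ^ (2 * m) := by ring
  omega

variable {F : Type*} [Field F] {m : ℕ}

section loc

variable {P : Type*} [Group P] [Finite P] (L : Loc m F P) (S : Subgroup P)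

theorem S1_Bb (l : Matrix.symplecticGroup (Fin m) F) (hl : l ∈ L.S1 S) (y : Fin m ⊕ Fin m → F) :
    y ∈ L.Bb S ↔ l.1 *ᵥ y ∈ L.Bb S := by
  obtain ⟨w, a, h⟩ := hl
  have := Bb_invariant L S w a 1 l (by simpa using h) y
  simpa using this

theorem sq_ne_one_of_char_two (h2 : (2 : F) = 0) (t : Fˣ) (ht : t ≠ 1) : (t : F) ^ 2 ≠ 1 := by
  intro h
  apply ht
  have h1 : ((t : F) - 1) ^ 2 = 0 := by linear_combination h + (1 - (t : F)) * h2
  have h3 : (t : F) - 1 = 0 := by simpa using h1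
  exact Units.ext (by simpa using sub_eq_zero.1 h3)

set_option maxHeartbeats 1000000 in
/-- [E] -/
theorem local_even [Fintype F] (h2 : (2 : F) = 0) (hq : 4 ≤ Fintype.card F) (hm : 1 ≤ m)
    (IH : ∀ R : Subgroup (Matrix.symplecticGroup (Fin m) F), R ≠ ⊤ →
      NN (Fintype.card F) m ≤ R.index) (hRF : L.RF S) :
    NN (Fintype.card F) (m + 1) ≤ S.index ∨ ∀ w, ∃ a, L.rho w a ∈ S := by
  classical
  by_cases hBt : ∀ w, ∃ a, L.rho w a ∈ S
  · exact Or.inr hBt
  left
  apply NN_le_of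
  obtain ⟨s, hs⟩ : ∃ s, Fintype.card F = s + 2 := ⟨Fintype.card F - 2, by omega⟩
  have hs2 : 2 ≤ s := by omega
  have hA : L.A S ≠ ⊤ := by
    obtain ⟨a, ha⟩ := hRF.1
    intro h
    exact ha (h ▸ AddSubgroup.mem_top a : a ∈ L.A S)
  have hBne : L.Bb S ≠ ⊤ := by
    intro h
    apply hBt
    intro w
    exact (h ▸ AddSubgroup.mem_top w : w ∈ L.Bb S)
  have hlam := lam_A_even L S h2 hA
  have hidx := index_formula L S
  set I := S.index with hI
  set b := Nat.card (L.Bb S) with hb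
  set a := Nat.card (L.A S) with ha
  set lam := Nat.card (L.Lam S) with hlamdef
  set i1 := (L.S1 S).index with hi1
  set c := (L.Bb S).index with hc
  set Q := Fintype.card F ^ (2 * m) with hQ
  have hbc : b * c = Q := by
    rw [hb, hc, AddSubgroup.card_mul_index, Nat.card_eq_fintype_card, hQ]
    simp [two_mul]
  have hbpos : 0 < b := Nat.card_pos
  have hapos : 0 < a := Nat.card_pos
  have hc2 : 2 ≤ c := by
    have h0 : c ≠ 0 := AddSubgroup.index_ne_zero_of_finite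
    have h1 : c ≠ 1 := fun h => hBne (AddSubgroup.index_eq_one.1 h)
    omega
  have hQge : (s+2)*(s+2) ≤ Q := by
    rw [hQ, hs]
    calc (s+2)*(s+2) = (s+2)^2 := by ring
      _ ≤ (s+2)^(2*m) := Nat.pow_le_pow_right (by omega) (by omega)
  -- the index formula after cancelling `b`
  have hidx' : I * a * lam = (s+2) * (s+1) * c * i1 := by
    have e1 : Fintype.card F ^ (2 * m + 1) = b * c * (s+2) := by
      rw [pow_succ, ← hQ, hbc, hs]
    have e2 : Fintype.card F - 1 = s + 1 := by omega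
    rw [e1, e2] at hidx
    have : b * (I * a * lam) = b * ((s+2) * (s+1) * c * i1) := by
      calc b * (I * a * lam) = I * (b * a * lam) := by ring
        _ = b * c * (s+2) * (s+1) * i1 := hidx
        _ = _ := by ring
    exact Nat.eq_of_mul_eq_mul_left hbpos this
  rw [hs] at hlam
  have e2 : Fintype.card F - 1 = s + 1 := by omega
  rw [e2, hs]
  -- a nonzero vector
  have hex : ∃ w0 : Fin m ⊕ Fin m → F, w0 ≠ 0 := by
    refine ⟨Pi.single (Sum.inl ⟨0, by omega⟩) 1, ?_⟩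
    intro h0
    have := congrFun h0 (Sum.inl ⟨0, by omega⟩)
    simp at this
  -- the torus argument
  have htorus : ∀ (t : Fˣ) (w : Fin m ⊕ Fin m → F) (a' : F) (l : Matrix.symplecticGroup (Fin m) F),
      t ≠ 1 → l ∈ L.S1 S → L.rho w a' * L.tor t * L.eps l ∈ S →
      ∀ x : Fin m ⊕ Fin m → F, x ≠ 0 → (∀ c', tv x c' ∈ L.S1 S) → False := by
    intro t w a' l ht hl hs' x hx hxS
    obtain ⟨x0, hx0⟩ := torus' L S t (sq_ne_one_of_char_two h2 t ht) w a' l hl hs'
    obtain ⟨c', hc'⟩ := hRF.2 x0 x hx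
    exact hc' (hx0 _ (hxS c'))
  by_cases hS1 : L.S1 S = ⊤
  · -- E1
    have hi1' : i1 = 1 := by rw [hi1, hS1]; exact Subgroup.index_top
    have hBbot : L.Bb S = ⊥ := by
      rw [eq_bot_iff]
      intro y hy
      by_contra hy0
      apply hBne
      rw [eq_top_iff]
      intro z _
      by_cases hz : z = 0
      · rw [hz]; exact AddSubgroup.zero_mem _
      obtain ⟨g, hg⟩ := Cfsg.Agent.S0271.result m y z (by simpa using hy0) hz
      rw [← hg]
      exact (S1_Bb L S g (hS1 ▸ Subgroup.mem_top g) y).1 hy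
    have hb1 : b = 1 := by rw [hb, hBbot]; simp
    have hlam1 : lam = 1 := by
      rw [hlamdef]
      have : L.Lam S = ⊥ := by
        rw [eq_bot_iff]
        intro t ht
        by_contra ht1
        obtain ⟨w, a', l, hl⟩ := ht
        obtain ⟨w0, hw0⟩ := hex
        exact htorus t w a' l (by simpa using ht1) (hS1 ▸ Subgroup.mem_top l) hl w0 hw0
          (fun c' => hS1 ▸ Subgroup.mem_top _)
      rw [this]; simp
    have hcQ : c = Q := by rw [← hbc, hb1, one_mul]
    apply A1 (s+1) I a Q (by omega)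
    · rw [hlam1, hi1', hcQ] at hidx'
      rw [mul_one, mul_one] at hidx'
      rw [hidx']; ring
    · rw [hlam1] at hlam
      omega
  · -- E2
    have hN := IH _ hS1
    have hNm := NN_mul (Fintype.card F) m
    rw [e2, ← hQ] at hNm
    have hi1r : Q ≤ i1 * (s+1) + 1 := by
      have h5 : NN (Fintype.card F) m * (s+1) ≤ i1 * (s+1) := Nat.mul_le_mul_right (s+1) hN
      rw [hNm] at h5
      omega
    -- powers of two
    have : CharP F 2 := CharTwo.of_one_ne_zero_of_two_eq_zero one_ne_zero h2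
    obtain ⟨e, -, he⟩ := FiniteField.card F 2
    have hcdvd : c ∣ 2 ^ ((e : ℕ) * (2 * m)) := by
      rw [pow_mul, ← he, ← hQ, ← hbc]
      exact Dvd.intro_left _ rfl
    obtain ⟨j, -, hj⟩ := (Nat.dvd_prime_pow Nat.prime_two).1 hcdvd
    rw [hs] at he
    by_cases hje : (e : ℕ) + 1 ≤ j
    · -- (i)
      have hc2q : 2 * (s + 1 + 1) ≤ c := by
        rw [hj]
        calc 2 * (s + 1 + 1) = 2 ^ ((e : ℕ) + 1) := by rw [pow_succ, ← he]; ring
          _ ≤ 2 ^ j := Nat.pow_le_pow_right (by omega) hje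
      apply A2 (s+1) I a lam c i1 Q (by omega) hidx' _ hc2q hi1r hQge
      have h6 : a * lam ≤ (lam + 1) * a := by
        rw [add_mul, one_mul, mul_comm]; exact Nat.le_add_right _ _
      omega
    · -- (ii)
      have hcq : c ≤ s + 2 := by
        rw [hj, he]; exact Nat.pow_le_pow_right (by omega) (by omega)
      obtain ⟨K, -, hK⟩ := exists_prime_index (⊥ : AddSubgroup F) bot_ne_top
      set C := perp K (L.Bb S) with hC
      have hCc : Nat.card C = c := by
        have := card_perp K hK (L.Bb S)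
        rw [← hb, ← hQ, ← hbc] at this
        exact Nat.eq_of_mul_eq_mul_left hbpos this
      have hC0 : C ≠ ⊥ := by
        intro h
        rw [h] at hCc
        simp at hCc
        omega
      have hCinv : ∀ l ∈ L.S1 S, ∀ x ∈ C, l.1 *ᵥ x ∈ C := by
        intro l hl x hx w hw
        have h1 : (l⁻¹).1 *ᵥ w ∈ L.Bb S := by
          rw [S1_Bb L S l hl, sp_mulVec_inv_mulVec]; exact hw
        have h3 := hx _ h1
        rw [← Cfsg.Agent.Lib.Helper13.sp_preserves l, sp_mulVec_inv_mulVec] at h3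
        exact h3
      have horb := orbit_ratio (L.S1 S) C hC0 hCinv
      rw [hCc, ← hQ, ← hi1] at horb
      obtain ⟨c', hc'⟩ : ∃ c', c = c' + 1 := ⟨c - 1, by omega⟩
      have horb' : Q ≤ i1 * c' + 1 := by
        rw [hc'] at horb
        simp only [Nat.add_sub_cancel] at horb
        omega
      by_cases ha2 : 2 ≤ a
      · rw [hc'] at hidx' hcq
        exact A3a s I a lam c' i1 Q hs2 hidx' hlam ha2 hcq horb' hQge
      have ha1 : a = 1 := by omega
      rw [ha1, mul_one] at hidx' hlam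
      by_cases hjeq : j = (e : ℕ)
      swap
      · have h2c : 2 * c ≤ s + 2 := by
          rw [hj, he]
          calc 2 * 2 ^ j = 2 ^ (j + 1) := by ring
            _ ≤ 2 ^ (e : ℕ) := Nat.pow_le_pow_right (by omega) (by omega)
        rw [hc'] at hidx' h2c
        exact A3b s I lam c' i1 Q hs2 hidx' hlam h2c horb' hQge
      have hcq' : c = s + 2 := by rw [hj, hjeq, he]
      rw [hcq'] at hidx'
      have hlamdvd : lam ∣ s + 1 := by
        have := Subgroup.card_subgroup_dvd_card (L.Lam S)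
        rw [Nat.card_eq_fintype_card (α := Fˣ), Fintype.card_units, e2] at this
        exact this
      by_cases hlr : lam = s + 1
      swap
      · obtain ⟨k, hk⟩ := hlamdvd
        have hk2 : 2 ≤ k := by
          rcases k with _ | _ | k
          · omega
          · omega
          · omega
        apply A4 (s+1) I lam i1 Q (by omega) hidx' _ hi1r hQge
        have h6 : lam * 2 ≤ lam * k := Nat.mul_le_mul_left _ hk2
        omega
      by_cases hi1big : Q + (s+1) ≤ i1 * (s+1) + 1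
      · rw [hlr] at hidx'
        exact A5 (s+1) I i1 Q (by omega) hidx' hi1big
      exfalso
      have hi1N : i1 * (s+1) = Q - 1 := by
        have h1 : i1 < NN (Fintype.card F) m + 1 := by
          by_contra hcon
          push Not at hcon
          have := Nat.mul_le_mul_right (s+1) hcon
          rw [add_mul, hNm] at this
          have hQpos : 0 < Q := by omega
          omega
        have h3 : i1 = NN (Fintype.card F) m := by omega
        rw [h3, hNm]
      have hLamtop : L.Lam S = ⊤ := by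
        apply Subgroup.eq_top_of_card_eq
        rw [← hlamdef, hlr, Nat.card_eq_fintype_card (α := Fˣ), Fintype.card_units, e2]
      obtain ⟨x, hx0, hxC, hxS⟩ := bad_even (L.S1 S) C (by rw [hCc, hcq', hs]) hCinv
        (by rw [e2, ← hi1, ← hQ]; exact hi1N)
      -- a torus element
      obtain ⟨t, ht⟩ : ∃ t : Fˣ, t ≠ 1 := by
        have : 1 < Fintype.card Fˣ := by rw [Fintype.card_units]; omega
        obtain ⟨t, ht⟩ := Fintype.exists_ne_of_one_lt_card this 1
        exact ⟨t, ht⟩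
      obtain ⟨w, a', l, hl⟩ : t ∈ L.Lam S := hLamtop ▸ Subgroup.mem_top t
      have hlx : l.1 *ᵥ x ∈ C := by
        intro w' hw'
        set w'' : Fin m ⊕ Fin m → F := ((t⁻¹ : Fˣ) : F) • ((l⁻¹).1 *ᵥ w') with hw''
        have e3 : (t : F) • (l.1 *ᵥ w'') = w' := by
          rw [hw'', Matrix.mulVec_smul, sp_mulVec_inv_mulVec, smul_smul, ← Units.val_mul,
            mul_inv_cancel, Units.val_one, one_smul]
        have h1 : w'' ∈ L.Bb S := by
          rw [Bb_invariant L S w a' t l hl, e3]; exact hw'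
        have h3 : (t : F) • x ∈ C := (hxC _).2 ⟨t, rfl⟩
        have h4 := h3 _ h1
        rw [← e3, sympForm_smul_right, Cfsg.Agent.Lib.Helper13.sp_preserves, ← sympForm_smul_left]
        exact h4
      obtain ⟨t', ht'⟩ := (hxC _).1 hlx
      have hlS : l ∈ L.S1 S := hxS l ⟨t', ht'⟩
      refine htorus t w a' l ht hlS hl x hx0 (fun c' => hxS _ ⟨1, ?_⟩)
      rw [tv_mulVec, sympForm_self, mul_zero, zero_smul, add_zero, one_smul]

end loc

end Cfsg.Agent.Lib.Helper11.MinSp
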