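import Cfsg.Agent.Lib.Helper91.MinSp.IDX
import Cfsg.Agent.Lib.Helper91.MinSp.INV
import Cfsg.Agent.Lib.Helper91.MinSp.O2
import Cfsg.Agent.Lib.Helper63.MinSp.LAM
import Cfsg.Agent.Lib.Helper63.MinSp.DUAL
import Cfsg.Agent.Lib.Helper1.MinSp.PERF

set_option autoImplicit false

/-! # Piece [O3] of the S2141 farm -/

namespace Cfsg.Agent.Lib.Helper11.MinSp

open Matrix Cfsg.Agent.Lib.Helper13 Cfsg.Agent.Lib.Helper5 Cfsg.Agent.Lib.Helper14.MinSp
open Cfsg.Agent.Lib.Helper91.MinSp Cfsg.Agent.Lib.Helper63.MinSp Cfsg.Agent.Lib.Helper1.MinSp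

theorem NN_le_of' (q m I : ℕ) (h : q * q * q ^ (2 * m) ≤ (q - 1) * I + 1) : NN q (m + 1) ≤ I := by
  unfold NN
  apply Nat.div_le_of_le_mul
  have : q ^ (2 * (m + 1)) = q * q * q ^ (2 * m) := by ring
  omega

theorem A6 (r I al i1 Q : ℕ) (hr : 5 ≤ r) (h : I * al = Q * (r+1) * r * i1) (hi : 3 ≤ i1)
    (hal : al ≤ 2 * (r+1)) : (r+1)*(r+1)*Q ≤ r*I+1 := by
  have h1 : 3 * Q * r * (r+1) ≤ (2 * I) * (r+1) := by
    calc 3 * Q * r * (r+1) = Q * (r+1) * r * 3 := by ring
      _ ≤ Q * (r+1) * r * i1 := Nat.mul_le_mul_left _ hi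
      _ = I * al := h.symm
      _ ≤ I * (2 * (r+1)) := Nat.mul_le_mul_left _ hal
      _ = (2 * I) * (r+1) := by ring
  have h2 : 3*Q*r ≤ 2 * I := Nat.le_of_mul_le_mul_right h1 (by omega)
  have h3 : 2 * ((r+1)*(r+1)) ≤ 3*r*r := by nlinarith
  have h4 : 2 * ((r+1)*(r+1)*Q) ≤ 2 * (r * I) := by
    calc 2 * ((r+1)*(r+1)*Q) = (2 * ((r+1)*(r+1))) * Q := by ring
      _ ≤ 3*r*r*Q := Nat.mul_le_mul_right _ h3
      _ = r * (3*Q*r) := by ring
      _ ≤ r * (2 * I) := Nat.mul_le_mul_left _ h2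
      _ = 2 * (r * I) := by ring
  omega

variable {F : Type*} [Field F] {m : ℕ}

/-- the affine hyperplane `(w,y) = 1` has `q^(2m)/q` elements -/
theorem card_affine [Fintype F] (w : Fin m ⊕ Fin m → F) (hw : w ≠ 0) :
    Fintype.card F * Nat.card {y : Fin m ⊕ Fin m → F // Cfsg.sympForm m F w y = 1}
      = Fintype.card F ^ (2 * m) := by
  obtain ⟨y1, hy1⟩ : ∃ y, Cfsg.sympForm m F w y ≠ 0 := by
    by_contra hcon
    push Not at hcon
    exact hw (sympForm_nondeg w hcon)
  set y0 := (Cfsg.sympForm m F w y1)⁻¹ • y1 with hy0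
  have h0 : Cfsg.sympForm m F w y0 = 1 := by
    rw [hy0, sympForm_smul_right, inv_mul_cancel₀ hy1]
  let e : F × {y : Fin m ⊕ Fin m → F // Cfsg.sympForm m F w y = 1} ≃ (Fin m ⊕ Fin m → F) :=
    { toFun := fun p => p.2.1 + p.1 • y0
      invFun := fun v => (Cfsg.sympForm m F w v - 1, ⟨v - (Cfsg.sympForm m F w v - 1) • y0, by
        rw [sympForm_sub_right, sympForm_smul_right, h0]; ring⟩)
      left_inv := by
        rintro ⟨c, y, hy⟩
        have : Cfsg.sympForm m F w (y + c • y0) - 1 = c := by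
          rw [sympForm_add_right, sympForm_smul_right, h0, hy]; ring
        ext1
        · exact this
        · apply Subtype.ext
          show y + c • y0 - (Cfsg.sympForm m F w (y + c • y0) - 1) • y0 = y
          rw [this]; abel
      right_inv := by
        intro v
        show v - (Cfsg.sympForm m F w v - 1) • y0 + (Cfsg.sympForm m F w v - 1) • y0 = v
        abel }
  have h := Nat.card_congr e
  rw [Nat.card_prod, Nat.card_eq_fintype_card, Nat.card_eq_fintype_card (α := Fin m ⊕ Fin m → F),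
    Fintype.card_fun, Fintype.card_sum, Fintype.card_fin] at h
  rw [h]; congr 1; ring

section loc

variable {P : Type*} [Group P] [Finite P] (L : Loc m F P) (S : Subgroup P)

theorem Bb_eq_bot_odd3 [Fintype F] (h2 : (2 : F) ≠ 0) (hm : 1 ≤ m) (hRF : L.RF S)
    (hC : ∀ w : Fin m ⊕ Fin m → F, w ≠ 0 → ∃ b, b ≠ 0 ∧ L.eps (tv w b) ∈ S) :
    L.Bb S = ⊥ := by
  classical
  by_contra hne
  obtain ⟨w, hwB, hw⟩ : ∃ w ∈ L.Bb S, w ≠ 0 := by
    by_contra hcon
    push Not at hcon
    exact hne ((AddSubgroup.eq_bot_iff_forall _).2 hcon)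
  have hq : 2 ≤ Fintype.card F := Fintype.one_lt_card
  -- choice of `b_y`
  have hyne : ∀ y : {y : Fin m ⊕ Fin m → F // Cfsg.sympForm m F w y = 1}, y.1 ≠ 0 := by
    rintro ⟨y, hy⟩ h0
    simp only at h0
    rw [h0, sympForm_zero_right] at hy
    exact zero_ne_one hy
  choose b hb0 hbS using fun y : {y : Fin m ⊕ Fin m → F // Cfsg.sympForm m F w y = 1} =>
    hC y.1 (hyne y)
  have hmem : ∀ y, b y • y.1 ∈ L.Bb S := by
    intro y
    have h1 := (Bb_invariant L S 0 0 1 (tv y.1 (b y)) (by simpa [L.rho_zero] using hbS y) w).1 hwB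
    rw [Units.val_one, one_smul, tv_mulVec, y.2, mul_one] at h1
    have h3 := (L.Bb S).sub_mem h1 hwB
    simpa using h3
  let f : Option {y : Fin m ⊕ Fin m → F // Cfsg.sympForm m F w y = 1} → L.Bb S :=
    fun o => o.elim 0 (fun y => ⟨b y • y.1, hmem y⟩)
  have hf : Function.Injective f := by
    intro o o' h
    have h' : (f o).1 = (f o').1 := congrArg Subtype.val h
    rcases o with _ | y <;> rcases o' with _ | y'
    · rfl
    · exfalso
      have : (0 : Fin m ⊕ Fin m → F) = b y' • y'.1 := h'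
      exact (smul_ne_zero (hb0 y') (hyne y')) this.symm
    · exfalso
      have : b y • y.1 = (0 : Fin m ⊕ Fin m → F) := h'
      exact (smul_ne_zero (hb0 y) (hyne y)) this
    · have h3 : b y • y.1 = b y' • y'.1 := h'
      have h4 := congrArg (Cfsg.sympForm m F w) h3
      rw [sympForm_smul_right, sympForm_smul_right, y.2, y'.2, mul_one, mul_one] at h4
      rw [h4] at h3
      have h5 := smul_right_injective _ (hb0 y') h3
      rw [Subtype.ext h5]
  have hcard := Nat.card_le_card_of_injective f hf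
  rw [Finite.card_option] at hcard
  have hT := card_affine w hw
  -- the isotropy bound
  let A' : AddSubgroup F := (L.A S).comap (AddMonoidHom.mulLeft 2)
  have hA' : A' ≠ ⊤ := by
    intro h
    obtain ⟨a, ha⟩ := hRF.1
    apply ha
    have : a / 2 ∈ A' := by rw [h]; trivial
    have h3 : 2 * (a / 2) ∈ L.A S := this
    rw [mul_div_cancel₀ _ h2] at h3
    exact h3
  have hiso := iso_lemma A' hA' (L.Bb S) (fun x hx x' hx' => two_form_mem_A L S x x' hx hx')
  rw [← hT] at hiso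
  obtain ⟨m', rfl⟩ : ∃ m', m = m' + 1 := ⟨m - 1, by omega⟩
  have hT2 : Fintype.card F ≤ Nat.card {y : Fin (m'+1) ⊕ Fin (m'+1) → F // Cfsg.sympForm (m'+1) F w y = 1} := by
    have e : Fintype.card F ^ (2 * (m' + 1)) = Fintype.card F * (Fintype.card F * Fintype.card F ^ (2 * m')) := by
      ring
    rw [e] at hT
    have h5 := Nat.eq_of_mul_eq_mul_left (by omega) hT
    rw [h5]
    exact Nat.le_mul_of_pos_right _ (Nat.pow_pos (by omega))
  nlinarith

/-- [O3] -/
theorem local_odd3 [Fintype F] (h2 : (2 : F) ≠ 0) (hm : 1 ≤ m) (hRF : L.RF S)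
    (hA : ∃ a, a ≠ 0 ∧ L.rho 0 a ∈ S)
    (hC : ∀ w : Fin m ⊕ Fin m → F, w ≠ 0 → ∃ b, b ≠ 0 ∧ L.eps (tv w b) ∈ S) :
    NN (Fintype.card F) (m + 1) ≤ S.index := by
  classical
  apply NN_le_of'
  have hAt : L.A S ≠ ⊤ := by
    intro h
    obtain ⟨a, ha⟩ := hRF.1
    apply ha
    have : a ∈ L.A S := by rw [h]; trivial
    exact this
  have hAb : L.A S ≠ ⊥ := by
    intro h
    obtain ⟨a, ha0, ha⟩ := hA
    have : a ∈ L.A S := ha
    rw [h] at this
    exact ha0 this
  have hodd : ¬ Even (Fintype.card F) := by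
    intro h
    have h3 := FiniteField.even_card_iff_char_two.2 (Nat.even_iff.1 h)
    have : CharP F 2 := ringChar.of_eq h3
    exact h2 (CharTwo.two_eq_zero)
  have hai := AddSubgroup.card_mul_index (L.A S)
  rw [Nat.card_eq_fintype_card (α := F)] at hai
  have ha1 : Nat.card (L.A S) ≠ 1 := by
    intro h
    exact hAb ((AddSubgroup.card_eq_one).1 h)
  have hi1 : (L.A S).index ≠ 1 := by
    intro h
    exact hAt (AddSubgroup.index_eq_one.1 h)
  have ha3 : 3 ≤ Nat.card (L.A S) := by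
    have h0 : Nat.card (L.A S) ≠ 0 := Nat.card_pos.ne'
    have h2' : Nat.card (L.A S) ≠ 2 := by
      intro h
      rw [h] at hai
      exact hodd ⟨(L.A S).index, by omega⟩
    omega
  have hi3 : 3 ≤ (L.A S).index := by
    have h0 : (L.A S).index ≠ 0 := by
      intro h
      rw [h] at hai
      have : 0 < Fintype.card F := Fintype.card_pos
      omega
    have h2' : (L.A S).index ≠ 2 := by
      intro h
      rw [h] at hai
      exact hodd ⟨Nat.card (L.A S), by omega⟩
    omega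
  have hq9 : 9 ≤ Fintype.card F := by
    rw [← hai]
    calc 9 = 3 * 3 := rfl
      _ ≤ _ := Nat.mul_le_mul ha3 hi3
  have hexc : ¬ (m = 1 ∧ Fintype.card F = 3) := by omega
  have hS1 := S1_ne_top_odd L S h2 hm hexc hRF
  have hi := three_le_index hm (by omega) hexc _ hS1
  have hB := Bb_eq_bot_odd3 L S h2 hm hRF hC
  have hidx := index_formula L S
  have hlam := lam_A_odd L S hAt
  have hB1 : Nat.card (L.Bb S) = 1 := by rw [hB]; exact AddSubgroup.card_bot
  rw [hB1, one_mul] at hidx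
  obtain ⟨r, hr⟩ : ∃ r, Fintype.card F = r + 1 := ⟨Fintype.card F - 1, by omega⟩
  rw [hr] at hidx hlam ⊢
  rw [Nat.add_sub_cancel] at hidx ⊢
  refine A6 r S.index (Nat.card (L.A S) * Nat.card (L.Lam S)) (L.S1 S).index _ (by omega) ?_ hi ?_
  · rw [hidx]; ring
  · nlinarith

end loc

end Cfsg.Agent.Lib.Helper11.MinSp
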